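import Cfsg.Agent.L.Orb.Mk2
/-!
Counting members with prescribed intersection size.
-/
set_option autoImplicit false
namespace CfsgL.Orb
open Cfsg CfsgL.Comp CfsgL.Golay
open scoped Pointwise

variable {α : Type} [MulAction (Equiv.Perm GolayPt) α]

theorem Orbs.count_card {M : Subgroup (Equiv.Perm GolayPt)} {FA : Set α}
    {FB : α → Set (Finset GolayPt)} {f : α → Finset GolayPt} {vals : List ℕ} {r : ℕ} {size : ℕ → ℕ}
    (h : Orbs M FA FB (fun a b => find vals (jsum 2 (sg (f a)) (sg b))) r size)
    (hr : r = vals.length) {a : α} (ha : a ∈ FA) (k : ℕ) (hi : find vals (k ^ 2) < r) :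
    {b | b ∈ FB a ∧ (f a ∩ b).card = k}.ncard = size (find vals (k ^ 2)) := by
  rw [← h.count a ha _ hi]
  congr 1
  ext b
  simp only [Set.mem_ofPred_eq, and_congr_right_iff]
  intro _
  rw [jsum_sg]
  constructor
  · intro h; rw [h]
  · intro h1
    have h2 := find_spec vals ((f a ∩ b).card ^ 2) (by rw [h1, ← hr]; exact hi)
    have h3 := find_spec vals (k ^ 2) (by rw [← hr]; exact hi)
    rw [h1, h3] at h2
    exact (Nat.pow_left_injective (n := 2) (by norm_num) h2).symm

theorem Orbs.count_card' {M : Subgroup (Equiv.Perm GolayPt)} {FA : Set α}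
    {FB : α → Set (Finset GolayPt)} {f : α → Finset GolayPt} {vals : List ℕ} {r : ℕ} {size : ℕ → ℕ}
    (h : Orbs M FA FB (fun a b => find vals (isum (sg (f a)) (sg b))) r size)
    (hr : r = vals.length) {a : α} (ha : a ∈ FA) (k : ℕ) (hi : find vals (k ^ 2) < r) :
    {b | b ∈ FB a ∧ (f a ∩ b).card = k}.ncard = size (find vals (k ^ 2)) := by
  have e : (fun (a : α) (b : Finset GolayPt) => find vals (isum (sg (f a)) (sg b))) =
      (fun a b => find vals (jsum 2 (sg (f a)) (sg b))) := by
    funext a b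
    rw [isum_sg, jsum_sg]
  rw [e] at h
  exact h.count_card hr ha k hi

end CfsgL.Orb
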