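import Cfsg.Agent.L.Orb.O3
import Cfsg.Agent.L.Orb.Cnt
import Cfsg.Agent.L.Orb.O_triad_sext
/-!
Further combinatorial lemmas: subsets of octads, sextets and triples.
-/
set_option autoImplicit false
namespace CfsgL.Orb
open Cfsg CfsgL.Comp CfsgL.Golay
open scoped Pointwise

/-- enumeration of a set refining a subset -/
theorem emb_of_sub {s u : Finset GolayPt} {n : ℕ} (hsu : s ⊆ u) (hu : u.card = n) :
    ∃ f : Fin n ↪ GolayPt, (∀ i, f i ∈ u) ∧ (∀ p, p ∈ s ↔ ∃ i : Fin n, i.val < s.card ∧ f i = p) := by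
  classical
  obtain ⟨l, hl⟩ : ∃ l, l = s.toList ++ (u \ s).toList := ⟨_, rfl⟩
  have hlen : l.length = n := by
    rw [hl, List.length_append, Finset.length_toList, Finset.length_toList,
      Finset.card_sdiff_of_subset hsu, hu]
    have := Finset.card_le_card hsu
    omega
  have hnd : l.Nodup := by
    rw [hl, List.nodup_append]
    refine ⟨Finset.nodup_toList _, Finset.nodup_toList _, ?_⟩
    intro a ha b hb hab
    rw [Finset.mem_toList] at ha hb
    rw [← hab, Finset.mem_sdiff] at hb
    exact hb.2 ha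
  have hmem : ∀ p ∈ l, p ∈ u := by
    intro p hp
    rw [hl, List.mem_append, Finset.mem_toList, Finset.mem_toList, Finset.mem_sdiff] at hp
    rcases hp with h1 | h1
    · exact hsu h1
    · exact h1.1
  have hget : ∀ i (h : i < l.length) (h' : i < s.toList.length), l[i] = s.toList[i] := by
    intro i h h'
    subst hl
    exact List.getElem_append_left h'
  have hlt : ∀ i : Fin n, i.val < l.length := fun i => by rw [hlen]; exact i.2
  have hsl : s.toList.length = s.card := Finset.length_toList s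
  have hsn : s.card ≤ n := by rw [← hu]; exact Finset.card_le_card hsu
  refine ⟨⟨fun i => l[i.val]'(hlt i), ?_⟩, ?_, ?_⟩
  · intro i j h
    exact Fin.ext ((List.Nodup.getElem_inj_iff hnd).1 h)
  · intro i
    exact hmem _ (List.getElem_mem _)
  · intro p
    constructor
    · intro hp
      obtain ⟨i, hi, e⟩ := List.mem_iff_getElem.1 (Finset.mem_toList.2 hp)
      refine ⟨⟨i, by omega⟩, by simp only; omega, ?_⟩
      change l[i]'_ = p
      rw [hget i (by omega) hi, e]
    · rintro ⟨i, hi, rfl⟩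
      change l[i.val]'_ ∈ s
      rw [← Finset.mem_toList, hget i.val (hlt i) (by omega)]
      exact List.getElem_mem _

/-- transitivity on subsets of octads -/
theorem oct_sub_trans {o o' s s' : Finset GolayPt} (ho : o ∈ octads) (ho' : o' ∈ octads)
    (hs : s ⊆ o) (hs' : s' ⊆ o') (h : s.card = s'.card) (h5 : s.card ≤ 5) :
    ∃ g ∈ M24, g • o = o' ∧ g • s = s' := by
  obtain ⟨u, hsu, huo, hu⟩ := Finset.exists_subsuperset_card_eq (n := 5) hs h5
    (by rw [card_octad ho]; norm_num)
  obtain ⟨u', hsu', huo', hu'⟩ := Finset.exists_subsuperset_card_eq (n := 5) hs' (by rw [← h]; exact h5)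
    (by rw [card_octad ho']; norm_num)
  obtain ⟨f, hf, hfs⟩ := emb_of_sub hsu hu
  obtain ⟨f', hf', hfs'⟩ := emb_of_sub hsu' hu'
  obtain ⟨g, hg, hgf⟩ := five_trans_emb f f'
  refine ⟨g, hg, ?_, ?_⟩
  · apply octad_eq_of_emb ((smul_octad hg).2 ho) ho' f'
    · intro i
      rw [← hgf]
      exact Finset.smul_mem_smul_finset (huo (hf i))
    · exact fun i => huo' (hf' i)
  · ext p
    rw [hfs' p, Finset.mem_smul_finset]
    constructor
    · rintro ⟨q, hq, rfl⟩
      obtain ⟨i, hi, rfl⟩ := (hfs q).1 hq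
      exact ⟨i, by omega, (hgf i).symm⟩
    · rintro ⟨i, hi, rfl⟩
      exact ⟨f i, (hfs _).2 ⟨i, by omega, rfl⟩, hgf i⟩

/-- octads with prescribed intersection with a mask -/
theorem ncard_meet (b s n : ℕ) (hs : s < 2 ^ 24)
    (hn : cntD (fun x => force (enc x) (fun m => Bool.and (Nat.beq (pop24 m) 8)
      (Nat.beq (Nat.land b m) s))) 12 0 = n) :
    {o : Finset GolayPt | o ∈ octads ∧ mset b ∩ o = mset s}.ncard = n := by
  refine ncard_sf _ _ ?_ n hn
  intro o
  rw [Set.mem_ofPred_eq, mem_octads]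
  constructor
  · rintro ⟨⟨x, hx, h1, rfl⟩, h2⟩
    refine ⟨x, hx, ?_, rfl⟩
    rw [Bool.and_eq_true, natBeq_iff, natBeq_iff]
    refine ⟨h1, ?_⟩
    rw [← mset_and, mset_inj (lt_of_le_of_lt Nat.and_le_right (enc_lt x)) hs] at h2
    exact h2
  · rintro ⟨x, hx, h1, rfl⟩
    rw [Bool.and_eq_true, natBeq_iff, natBeq_iff] at h1
    refine ⟨⟨x, hx, h1.1, rfl⟩, ?_⟩
    rw [← mset_and]
    exact congrArg mset h1.2

theorem meet_count {o s : Finset GolayPt} (ho : o ∈ octads) (hs : s ⊆ o) :
    (s.card = 2 → {o' : Finset GolayPt | o' ∈ octads ∧ o ∩ o' = s}.ncard = 16) ∧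
    (s.card = 4 → {o' : Finset GolayPt | o' ∈ octads ∧ o ∩ o' = s}.ncard = 4) := by
  have key : ∀ m : ℕ, mset m ⊆ O0 → s.card = (mset m).card → s.card ≤ 5 →
      {o' : Finset GolayPt | o' ∈ octads ∧ o ∩ o' = s}.ncard =
      {o' : Finset GolayPt | o' ∈ octads ∧ mset 0x82402f ∩ o' = mset m}.ncard := by
    intro m hm h h5
    obtain ⟨g, hg, h1, h2⟩ := oct_sub_trans ho O0_mem hs hm h h5
    apply ncard_smul_eq (g := g)
    intro t
    rw [Set.mem_ofPred_eq, Set.mem_ofPred_eq, smul_octad hg, ← h2, ← mset_O0, ← h1,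
      ← Finset.smul_finset_inter, smul_left_cancel_iff]
  constructor
  · intro h
    rw [key 0x3 ((subm_iff (by decide)).1 (by decide +kernel)) (by rw [h, card_mset]; decide +kernel)
      (by omega)]
    exact ncard_meet _ _ _ (by decide) (by decide +kernel)
  · intro h
    rw [key 0xf ((subm_iff (by decide)).1 (by decide +kernel)) (by rw [h, card_mset]; decide +kernel)
      (by omega)]
    exact ncard_meet _ _ _ (by decide) (by decide +kernel)

/-- a sextet partitions any set -/
theorem sext_sum {S : Finset (Finset GolayPt)} (hS : S ∈ sextets) (Y : Finset GolayPt) :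
    ∑ t ∈ S, (t ∩ Y).card = Y.card := by
  rw [← Finset.card_biUnion]
  · congr 1
    ext p
    simp only [Finset.mem_biUnion, Finset.mem_inter]
    constructor
    · rintro ⟨_, _, _, h⟩; exact h
    · intro hp
      have hne : S.Nonempty := by rw [← Finset.card_pos, hS.1]; omega
      obtain ⟨t, ht⟩ := hne
      obtain ⟨u, hu, hpu⟩ := cls_cover (hS.2.1 t ht) p
      rw [← sextet_eq hS ht] at hu
      exact ⟨u, hu, hpu, hp⟩
  · intro t ht u hu hne
    have := sext_disj hS t ht u hu hne
    rw [Function.onFun]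
    exact Finset.disjoint_of_subset_left Finset.inter_subset_left
      (Finset.disjoint_of_subset_right Finset.inter_subset_left this)

theorem sum_three {ι : Type} [DecidableEq ι] (S : Finset ι) (f : ι → ℕ) (h : ∑ i ∈ S, f i = 3) :
    (S.filter (fun i => 0 < f i)).card = 1 ∧ ∑ i ∈ S, f i ^ 2 = 9 ∨
    (S.filter (fun i => 0 < f i)).card = 2 ∧ ∑ i ∈ S, f i ^ 2 = 5 ∨
    (S.filter (fun i => 0 < f i)).card = 3 ∧ ∑ i ∈ S, f i ^ 2 = 3 := by
  by_cases h3 : ∃ i ∈ S, 3 ≤ f i
  · left
    obtain ⟨i, hi, hf⟩ := h3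
    have h1 := Finset.add_sum_erase S f hi
    rw [h] at h1
    have h2 : ∑ x ∈ S.erase i, f x = 0 := by omega
    have hfi : f i = 3 := by omega
    rw [Finset.sum_eq_zero_iff] at h2
    constructor
    · rw [Finset.card_eq_one]
      refine ⟨i, ?_⟩
      ext j
      rw [Finset.mem_filter, Finset.mem_singleton]
      constructor
      · rintro ⟨hj, hj'⟩
        by_contra hne
        have := h2 j (Finset.mem_erase.2 ⟨hne, hj⟩)
        omega
      · rintro rfl; exact ⟨hi, by omega⟩
    · rw [← Finset.add_sum_erase S _ hi, hfi, Finset.sum_eq_zero (fun j hj => by rw [h2 j hj]; rfl)]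
      norm_num
  · right
    push Not at h3
    have key : ∑ i ∈ S, f i ^ 2 + 2 * (S.filter (fun i => 0 < f i)).card = 3 * ∑ i ∈ S, f i := by
      rw [Finset.card_filter, Finset.mul_sum, Finset.mul_sum, ← Finset.sum_add_distrib]
      apply Finset.sum_congr rfl
      intro i hi
      have := h3 i hi
      interval_cases (f i) <;> simp
    have hle : (S.filter (fun i => 0 < f i)).card ≤ 3 := by
      rw [← h, Finset.card_filter]
      apply Finset.sum_le_sum
      intro i _
      split_ifs <;> omega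
    have hge : 2 ≤ (S.filter (fun i => 0 < f i)).card := by
      by_contra hlt
      push Not at hlt
      have h4 : ∑ i ∈ S, f i ≤ 2 * (S.filter (fun i => 0 < f i)).card := by
        rw [Finset.card_filter, Finset.mul_sum]
        apply Finset.sum_le_sum
        intro i hi
        have := h3 i hi
        interval_cases (f i) <;> simp
      omega
    omega

theorem isum_triad {S : Finset (Finset GolayPt)} (hS : S ∈ sextets) {Y : Finset GolayPt}
    (hY : Y.card = 3) :
    (S.filter fun t => (t ∩ Y).Nonempty).card = 1 ∧ isum (sg Y) (id S) = 9 ∨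
    (S.filter fun t => (t ∩ Y).Nonempty).card = 2 ∧ isum (sg Y) (id S) = 5 ∨
    (S.filter fun t => (t ∩ Y).Nonempty).card = 3 ∧ isum (sg Y) (id S) = 3 := by
  have h := sum_three S (fun t => (t ∩ Y).card) (by rw [sext_sum hS, hY])
  have e1 : (S.filter fun t => (t ∩ Y).Nonempty) = S.filter (fun i => 0 < (i ∩ Y).card) := by
    ext t; simp [Finset.card_pos]
  have e2 : isum (sg Y) (id S) = ∑ t ∈ S, (t ∩ Y).card ^ 2 := by
    unfold isum sg
    rw [Finset.sum_singleton]
    apply Finset.sum_congr rfl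
    intro t _
    rw [Finset.inter_comm]
  rw [e1, e2]
  exact h

end CfsgL.Orb
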