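import Cfsg.Agent.L.Orb.Mk
/-!
Base objects and generators of their stabilisers.
-/
set_option autoImplicit false
namespace CfsgL.Orb
open Cfsg CfsgL.Comp CfsgL.Golay
open scoped Pointwise

/-- generators of the stabiliser of the base object (oct) -/
def gs_oct : List ℕ := [0x19150ab4535812679e8c458b20ddd1, 0x2aad9582ba44c764d0983dc4188b7, 0x8d6467a1d625cea5b6744b03028043, 0x89a96aa0aa5b8ed930909bc0908ee2]

theorem gs_oct_ok : ∀ P ∈ gs_oct, ∃ g ∈ M24, Agrees g P ∧ g • mset 0x82402f = mset 0x82402f :=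
  gsMask_sound (by decide +kernel)

/-- generators of the stabiliser of the base object (dod) -/
def gs_dod : List ℕ := [0x795d1b4ae6a2c483d5239c1402058d, 0xacdd17c8a8b5da35aa0939a8013081, 0x8aee7b25ec2b804a290299aad90c30, 0xbba2fab2869ac0451d10b04ad18932]

theorem gs_dod_ok : ∀ P ∈ gs_dod, ∃ g ∈ M24, Agrees g P ∧ g • mset 0x5335f = mset 0x5335f :=
  gsMask_sound (by decide +kernel)

/-- generators of the stabiliser of the base object (sext) -/
def gs_sext : List ℕ := [0x1beab381a991141bb10234ed48162e, 0xb1ee8028735c6b44c98f105c62c1a4, 0x6d6292dd73a48e2029e11b986442c4, 0xb2c4e0ce8c2bd153446705d524b604]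

/-- base object (sext) -/
def L_sext : List ℕ := [0x24028, 0x41900, 0x108600, 0x2800c0, 0x412010, 0x800007]

theorem gs_sext_ok : ∀ P ∈ gs_sext, ∃ g ∈ M24, Agrees g P ∧ g • objL L_sext = objL L_sext :=
  gsList_sound (by decide +kernel)

/-- generators of the stabiliser of the base object (trio) -/
def gs_trio : List ℕ := [0x80aee2ccd419d9102df6a9121929a8, 0x9a0d450b390dea39195b2ee903a22, 0x5aafa19c798d44649a98204b28637, 0x84440bd516719650cdf4611a33a932]

/-- base object (trio) -/
def L_trio : List ℕ := [0x527c0, 0x789810, 0x82402f]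

theorem gs_trio_ok : ∀ P ∈ gs_trio, ∃ g ∈ M24, Agrees g P ∧ g • objL L_trio = objL L_trio :=
  gsList_sound (by decide +kernel)

/-- generators of the stabiliser of the base object (dpair) -/
def gs_dpair : List ℕ := [0x5466ea3162a94c9b5c8d3a1f01c801, 0x2aaefb3283aac043b8c19ca22425b0, 0x7a8f4b8ed29b9ac5c526286a280104, 0x89e9570ca9bac249a9867c2c893440]

/-- base object (dpair) -/
def L_dpair : List ℕ := [0x5335f, 0xfacca0]

theorem gs_dpair_ok : ∀ P ∈ gs_dpair, ∃ g ∈ M24, Agrees g P ∧ g • objL L_dpair = objL L_dpair :=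
  gsList_sound (by decide +kernel)

/-- generators of the stabiliser of the base object (duad) -/
def gs_duad : List ℕ := [0xbd4cb425cf9c6c791290534ac10c20, 0x4e81509cc8110f5c92d2d4d1b0cf7, 0x5a498a9cda3e6521d021d60c0acd7, 0xbb0a86ce497d4347584a81c6459a20]

theorem gs_duad_ok : ∀ P ∈ gs_duad, ∃ g ∈ M24, Agrees g P ∧ g • mset 0x800001 = mset 0x800001 :=
  gsMask_sound (by decide +kernel)

/-- generators of the stabiliser of the base object (triad) -/
def gs_triad : List ℕ := [0xb919638aa332269548af7360b8d020, 0xbb925945ab991e8a315538c46b4020, 0x51ca3249565a271ccb25bc486c2e1, 0xbc08b8b873154ad3c914499eab3020]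

theorem gs_triad_ok : ∀ P ∈ gs_triad, ∃ g ∈ M24, Agrees g P ∧ g • mset 0x800003 = mset 0x800003 :=
  gsMask_sound (by decide +kernel)

end CfsgL.Orb
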