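import Cfsg.Agent.L.Orb.Use
/-!
General version of the orbit table construction: restricted domains, invariants with exponents.
-/
set_option autoImplicit false
namespace CfsgL.Orb
open Cfsg CfsgL.Comp CfsgL.Golay
open scoped Pointwise

variable {α β : Type} [MulAction (Equiv.Perm GolayPt) α] [MulAction (Equiv.Perm GolayPt) β]

/-- sum of the `e`-th powers of the intersection sizes -/
def jsum (e : ℕ) (a b : Finset (Finset GolayPt)) : ℕ := ∑ s ∈ a, ∑ t ∈ b, (s ∩ t).card ^ e

theorem jsum_smul (e : ℕ) (g : Equiv.Perm GolayPt) (a b : Finset (Finset GolayPt)) :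
    jsum e (g • a) (g • b) = jsum e a b := by
  unfold jsum
  have h : ∀ (a : Finset (Finset GolayPt)) (f : Finset GolayPt → ℕ),
      ∑ s ∈ g • a, f s = ∑ s ∈ a, f (g • s) := by
    intro a f
    exact Finset.sum_image (fun x _ y _ hxy => smul_left_cancel g hxy)
  rw [h]
  apply Finset.sum_congr rfl
  intro s _
  rw [h]
  apply Finset.sum_congr rfl
  intro t _
  rw [← Finset.smul_finset_inter, card_smul_finset']

/-- one row of the invariant -/
def jsumR (e x : ℕ) (l' : List ℕ) (r : ℕ) : ℕ :=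
  List.rec (motive := fun _ => ℕ) r
    (fun y _ ih' => Nat.add (Nat.pow (pop24 (Nat.land x y)) e) ih') l'

/-- the invariant on masks -/
def jsumL (e : ℕ) (l l' : List ℕ) : ℕ :=
  List.rec (motive := fun _ => ℕ) 0 (fun x _ ih => jsumR e x l' ih) l

theorem jsumR_eq (e x : ℕ) (l' : List ℕ) (r : ℕ) :
    jsumR e x l' r = (l'.map (fun y => (pop24 (x &&& y)) ^ e)).sum + r := by
  induction l' with
  | nil => simp [jsumR]
  | cons y l' ih' =>
    change Nat.add ((pop24 (x &&& y)) ^ e) (jsumR e x l' r) = _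
    rw [ih', List.map_cons, List.sum_cons]
    change (pop24 (x &&& y)) ^ e + _ = _
    ring

theorem jsumL_eq (e : ℕ) (l l' : List ℕ) : jsumL e l l' =
    (l.map (fun x => (l'.map (fun y => (pop24 (x &&& y)) ^ e)).sum)).sum := by
  induction l with
  | nil => rfl
  | cons x l ih =>
    change jsumR e x l' (jsumL e l l') = _
    rw [jsumR_eq, ih, List.map_cons, List.sum_cons]

theorem jsum_objL {e : ℕ} {l l' : List ℕ} (h : l.Pairwise (· < ·)) (h' : l'.Pairwise (· < ·))
    (hl : ∀ m ∈ l, m < 2 ^ 24) (hl' : ∀ m ∈ l', m < 2 ^ 24) :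
    jsum e (objL l) (objL l') = jsumL e l l' := by
  rw [jsumL_eq]
  unfold jsum objL
  have key : ∀ (l : List ℕ), l.Pairwise (· < ·) → (∀ m ∈ l, m < 2 ^ 24) →
      ∀ f : Finset GolayPt → ℕ, ∑ s ∈ (l.map mset).toFinset, f s = (l.map (fun x => f (mset x))).sum := by
    intro l h hl f
    rw [List.sum_toFinset, List.map_map]
    · rfl
    · rw [List.nodup_map_iff_inj_on (h.imp (fun h => ne_of_lt h))]
      intro x hx y hy e
      exact (mset_inj (hl x hx) (hl y hy)).1 e
  rw [key l h hl]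
  congr 1
  apply List.map_congr_left
  intro x _
  rw [key l' h' hl']
  congr 1
  apply List.map_congr_left
  intro y _
  rw [← mset_and, card_mset]

/-- general construction -/
theorem mk_orbs2 {FA : Set α} {FB : α → Set β} {F : Set β} (B : Fam F) (step : ℕ → ℕ → ℕ → Bool)
    (n : ℕ) (hstep : B.step = step) (hn : B.n = n) (dom : ℕ → Bool) (A0 : α)
    (hA : ∀ a ∈ FA, ∃ h ∈ M24, h • A0 = a)
    (gs roots : List ℕ) (hgs : ∀ P ∈ gs, ∃ g ∈ M24, Agrees g P ∧ g • A0 = A0)
    (e : ℕ)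
    (eA : α → Finset (Finset GolayPt)) (eB : β → Finset (Finset GolayPt))
    (heA : ∀ g ∈ M24, ∀ a, eA (g • a) = g • eA a)
    (heB : ∀ g ∈ M24, ∀ b, eB (g • b) = g • eB b)
    (LA : List ℕ) (hLA : incrL LA = true) (hLA' : LA.all (fun m => Nat.ble (m + 1) 16777216) = true)
    (hA0 : eA A0 = objL LA) (rows : ℕ → List ℕ) (hrows : ∀ k < n, (rows k).Pairwise (· < ·))
    (hrows' : ∀ k, ∀ m ∈ rows k, m < 2 ^ 24) (hB : ∀ k, eB (B.obj k) = objL (rows k))
    (vals : List ℕ)
    (hF : ∀ g ∈ M24, ∀ a, ∀ b ∈ FB a, g • b ∈ FB (g • a)) (hsub : ∀ b ∈ FB A0, b ∈ F)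
    (hdom : ∀ k < n, dom k = true ↔ B.obj k ∈ FB A0)
    (T : ℕ) (sizes : List ℕ)
    (h : chkAll step n dom gs roots (fun k => find vals (jsumL e LA (rows k))) T = true)
    (hlt : labLt n T sizes.length = true)
    (hcnt : cntOK n dom T sizes = true) :
    Orbs M24 FA FB (fun a b => find vals (jsum e (eA a) (eB b))) sizes.length (szf sizes) := by
  refine Orbs.of_table B dom M24 A0 hA gs roots hgs _ ?_ hF hsub (by rw [hn]; exact hdom)
    (fun k => find vals (jsumL e LA (rows k))) ?_ T sizes.length (szf sizes) ?_ ?_ ?_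
  · intro g hg a b
    rw [heA g hg, heB g hg, jsum_smul]
  · intro k hk _
    beta_reduce
    rw [hA0, hB, jsum_objL (incrL_pairwise hLA) (hrows k (by rwa [← hn])) ?_ (hrows' k)]
    intro m hm
    rw [List.all_eq_true] at hLA'
    have := hLA' m hm
    rw [natBle_iff] at this
    omega
  · rw [hstep, hn]; exact h
  · rw [hn]; exact hlt
  · rw [hn]; exact cntOK_iff hcnt

/-- general construction for families of sets of points -/
theorem mk_mask {FA : Set α} {FB : α → Set (Finset GolayPt)} {F : Set (Finset GolayPt)} (B : Fam F)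
    (TB n : ℕ) (hobj : B.obj = fun k => mset (ent TB k)) (hstep : B.step = mstep TB) (hn : B.n = n)
    (dom : ℕ → Bool) (A0 : α)
    (hA : ∀ a ∈ FA, ∃ h ∈ M24, h • A0 = a)
    (gs roots : List ℕ) (hgs : ∀ P ∈ gs, ∃ g ∈ M24, Agrees g P ∧ g • A0 = A0)
    (e : ℕ)
    (eA : α → Finset (Finset GolayPt))
    (heA : ∀ g ∈ M24, ∀ a, eA (g • a) = g • eA a)
    (LA : List ℕ) (hLA : incrL LA = true) (hLA' : LA.all (fun m => Nat.ble (m + 1) 16777216) = true)
    (hA0 : eA A0 = objL LA) 
    (vals : List ℕ)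
    (hF : ∀ g ∈ M24, ∀ a, ∀ b ∈ FB a, g • b ∈ FB (g • a)) (hsub : ∀ b ∈ FB A0, b ∈ F)
    (hdom : ∀ k < n, dom k = true ↔ mset (ent TB k) ∈ FB A0)
    (T : ℕ) (sizes : List ℕ)
    (h : chkAll (mstep TB) n dom gs roots (fun k => find vals (jsumL e LA [ent TB k])) T = true)
    (hlt : labLt n T sizes.length = true)
    (hcnt : cntOK n dom T sizes = true) :
    Orbs M24 FA FB (fun a b => find vals (jsum e (eA a) (sg b))) sizes.length (szf sizes) :=
  mk_orbs2 B (mstep TB) n hstep hn dom A0 hA gs roots hgs e eA sg heA (fun g _ b => sg_smul g b)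
    LA hLA hLA' hA0 (fun k => [ent TB k]) (fun k _ => pair1 _)
    (fun k m hm => by rw [List.mem_singleton] at hm; rw [hm]; exact ent_lt _ _)
    (fun k => by rw [hobj]; exact sg_mset _) vals hF hsub (by rw [hobj]; exact hdom) T sizes h hlt hcnt

/-- validity of generators: points, masks and rows fixed -/
def gsAll (gs pts ms : List ℕ) (rs : List (List ℕ)) : Bool :=
  gs.all (fun P => Bool.and (okGen P) (Bool.and (pts.all (fun i => Nat.beq (papp P i) i))
    (Bool.and (ms.all (fun m => Nat.beq (img P m) m)) (rs.all (fun l => subImg P l l)))))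

theorem gsAll_sound {gs pts ms : List ℕ} {rs : List (List ℕ)} (h : gsAll gs pts ms rs = true) :
    ∀ P ∈ gs, ∃ g ∈ M24, Agrees g P ∧ (∀ i ∈ pts, i < 24 → g (ofIdx i) = ofIdx i) ∧
      (∀ m ∈ ms, g • mset m = mset m) ∧ (∀ l ∈ rs, g • objL l = objL l) := by
  intro P hP
  unfold gsAll at h
  rw [List.all_eq_true] at h
  have := h P hP
  rw [Bool.and_eq_true, Bool.and_eq_true, Bool.and_eq_true, List.all_eq_true, List.all_eq_true,
    List.all_eq_true] at this
  obtain ⟨h1, h2, h3, h4⟩ := this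
  obtain ⟨g, hg, hA⟩ := okGen_sound h1
  refine ⟨g, hg, hA, ?_, ?_, ?_⟩
  · intro i hi hlt
    rw [← toIdx_inj, hA i hlt, natBeq_iff.1 (h2 i hi), toIdx_ofIdx hlt]
  · intro m hm
    rw [← hA.mset_img, natBeq_iff.1 (h3 m hm)]
  · intro l hl
    apply Finset.eq_of_subset_of_card_le (subImg_sound hA (h4 l hl))
    rw [card_smul_fam]

theorem mem_mset_idx {m i : ℕ} (hi : i < 24) : ofIdx i ∈ mset m ↔ m.testBit i = true := by
  rw [mem_mset, toIdx_ofIdx hi]

theorem smul_mem_iff {g : Equiv.Perm GolayPt} {p : GolayPt} {s : Finset GolayPt} :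
    g • p ∈ g • s ↔ p ∈ s := Finset.smul_mem_smul_finset_iff g

theorem jsum_sg (e : ℕ) (a b : Finset GolayPt) : jsum e (sg a) (sg b) = (a ∩ b).card ^ e := by
  unfold jsum sg; simp

theorem jsum_id (e : ℕ) (a b : Finset (Finset GolayPt)) : jsum e a b =
  ∑ s ∈ a, ∑ t ∈ b, (s ∩ t).card ^ e := rfl

theorem oct_mem_mset (k : ℕ) (hk : k < 759) : mset (ent octT k) ∈ octads := octF.mem k hk
theorem dod_mem_mset (k : ℕ) (hk : k < 2576) : mset (ent dodT k) ∈ dodecads := dodF.mem k hk

end CfsgL.Orb
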