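import Cfsg.Agent.L.Orb.Data2
import Cfsg.Agent.L.Golay.OctTrans
/-!
Orbits of joint stabilisers of points and octads or dodecads.
-/
set_option autoImplicit false
namespace CfsgL.Orb
open Cfsg CfsgL.Comp CfsgL.Golay
open scoped Pointwise

theorem O0_card : O0.card = 8 := card_octad O0_mem
theorem bp23_O0 : bp 23 ∈ O0 := (mem_mset_idx (by decide)).2 (by decide +kernel)
theorem bp0_O0 : bp 0 ∈ O0 := (mem_mset_idx (by decide)).2 (by decide +kernel)
theorem bp4_O0 : bp 4 ∉ O0 := fun h => absurd ((mem_mset_idx (by decide)).1 h) (by decide +kernel)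

theorem exists_not_mem_octad {o : Finset GolayPt} (ho : o ∈ octads) : ∃ p, p ∉ o := by
  by_contra h
  push Not at h
  have : o = Finset.univ := Finset.eq_univ_iff_forall.2 h
  have h1 := card_octad ho
  rw [this, Finset.card_univ, card_pt] at h1
  omega

/-- flags: point in octad, second point in octad, third point outside -/
theorem flag3 {o o' : Finset GolayPt} (ho : o ∈ octads) (ho' : o' ∈ octads) {p q r p' q' r' : GolayPt}
    (hp : p ∈ o) (hq : q ∈ o) (hpq : p ≠ q) (hr : r ∉ o) (hp' : p' ∈ o') (hq' : q' ∈ o')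
    (hpq' : p' ≠ q') (hr' : r' ∉ o') :
    ∃ g ∈ M24, g p = p' ∧ g q = q' ∧ g r = r' ∧ g • o = o' := by
  obtain ⟨f, hf, e1, e2⟩ := exists_emb_ext2 (s := o) (n := 3) (by rw [card_octad ho]; norm_num) hp hq hpq
  obtain ⟨f', hf', e1', e2'⟩ := exists_emb_ext2 (s := o') (n := 3) (by rw [card_octad ho']; norm_num)
    hp' hq' hpq'
  obtain ⟨g, hg, h1, h2, h3⟩ := oct_pt_trans ho ho' f f' hf hf' hr hr'
  refine ⟨g, hg, ?_, ?_, h3, h2⟩
  · rw [← e1, ← e1']; exact h1 0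
  · rw [← e2, ← e2']; exact h1 1

theorem exists_other_in {o : Finset GolayPt} (ho : o ∈ octads) (p : GolayPt) : ∃ q ∈ o, p ≠ q := by
  have : 0 < (o.erase p).card := by
    have := Finset.pred_card_le_card_erase (s := o) (a := p)
    rw [card_octad ho] at this; omega
  obtain ⟨q, hq⟩ := Finset.card_pos.1 this
  rw [Finset.mem_erase] at hq
  exact ⟨q, hq.2, hq.1.symm⟩

/-- `(x, o)` with `x ∈ o` -/
theorem orbs_xo : Orbs M24 {a : GolayPt × Finset GolayPt | a.2 ∈ octads ∧ a.1 ∈ a.2}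
    (fun a => {b | b ∈ octads ∧ a.1 ∈ b})
    (fun a b => find [64, 4, 16] (jsum 2 (sg a.2) (sg b))) 3 (szf [1, 112, 140]) := by
  refine mk_mask (α := GolayPt × Finset GolayPt) octF octT 759 rfl rfl rfl
    (fun k => Nat.testBit (ent octT k) 23) (bp 23, O0) ?_ gs_xo rt_xo ?_ 2
    (fun a => sg a.2) (fun g _ a => sg_smul g a.2) [0x82402f] (by decide +kernel) (by decide +kernel)
    (sg_mset _) [64, 4, 16] ?_ (fun b h => h.1) ?_ tab_xo [1, 112, 140] (by decide +kernel)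
    (by decide +kernel) (by decide +kernel)
  · rintro ⟨x, o⟩ ⟨ho, hx⟩
    obtain ⟨q, hq, hne⟩ := exists_other_in ho x
    obtain ⟨r, hr⟩ := exists_not_mem_octad ho
    obtain ⟨g, hg, h1, _, _, h2⟩ := flag3 O0_mem ho bp23_O0 bp0_O0 (by decide) bp4_O0 hx hq hne hr
    exact ⟨g, hg, Prod.ext h1 h2⟩
  · intro P hP
    obtain ⟨g, hg, hA, h1, h2, _⟩ := gsAll_sound (gs := gs_xo) (pts := [23]) (ms := [0x82402f])
      (rs := []) (by decide +kernel) P hP
    exact ⟨g, hg, hA, Prod.ext (h1 23 (by simp) (by decide)) (h2 _ (by simp))⟩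
  · intro g hg a b hb
    exact ⟨(smul_octad hg).2 hb.1, (Finset.smul_mem_smul_finset_iff g).2 hb.2⟩
  · intro k hk
    rw [← mem_mset_idx (by decide : 23 < 24)]
    exact ⟨fun h => ⟨oct_mem_mset k hk, h⟩, fun h => h.2⟩

/-- `(x, o)` with `x ∉ o` -/
theorem orbs_xO : Orbs M24 {a : GolayPt × Finset GolayPt | a.2 ∈ octads ∧ a.1 ∉ a.2}
    (fun a => {b | b ∈ octads ∧ a.1 ∉ b})
    (fun a b => find [64, 0, 16, 4] (jsum 2 (sg a.2) (sg b))) 4 (szf [1, 15, 210, 280]) := by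
  refine mk_mask (α := GolayPt × Finset GolayPt) octF octT 759 rfl rfl rfl
    (fun k => Bool.not (Nat.testBit (ent octT k) 4)) (bp 4, O0) ?_ gs_xO rt_xO ?_ 2
    (fun a => sg a.2) (fun g _ a => sg_smul g a.2) [0x82402f] (by decide +kernel) (by decide +kernel)
    (sg_mset _) [64, 0, 16, 4] ?_ (fun b h => h.1) ?_ tab_xO [1, 15, 210, 280] (by decide +kernel)
    (by decide +kernel) (by decide +kernel)
  · rintro ⟨x, o⟩ ⟨ho, hx⟩
    obtain ⟨p, hp, _⟩ := exists_other_in ho x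
    obtain ⟨q, hq, hne⟩ := exists_other_in ho p
    obtain ⟨g, hg, _, _, h1, h2⟩ := flag3 O0_mem ho bp23_O0 bp0_O0 (by decide) bp4_O0 hp hq hne hx
    exact ⟨g, hg, Prod.ext h1 h2⟩
  · intro P hP
    obtain ⟨g, hg, hA, h1, h2, _⟩ := gsAll_sound (gs := gs_xO) (pts := [4]) (ms := [0x82402f])
      (rs := []) (by decide +kernel) P hP
    exact ⟨g, hg, hA, Prod.ext (h1 4 (by simp) (by decide)) (h2 _ (by simp))⟩
  · intro g hg a b hb
    exact ⟨(smul_octad hg).2 hb.1, fun h => hb.2 ((Finset.smul_mem_smul_finset_iff g).1 h)⟩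
  · intro k hk
    rw [Bool.not_eq_true', ← Bool.not_eq_true, ← mem_mset_idx (by decide : 4 < 24)]
    exact ⟨fun h => ⟨oct_mem_mset k hk, h⟩, fun h => h.2⟩

/-- `(p, q, o)` with `p, q ∈ o` -/
theorem orbs_pqo : Orbs M24 {a : GolayPt × GolayPt × Finset GolayPt | a.2.2 ∈ octads ∧ a.1 ∈ a.2.2 ∧
      a.2.1 ∈ a.2.2 ∧ a.1 ≠ a.2.1}
    (fun a => {b | b ∈ octads ∧ a.1 ∈ b ∧ a.2.1 ∈ b})
    (fun a b => find [64, 4, 16] (jsum 2 (sg a.2.2) (sg b))) 3 (szf [1, 16, 60]) := by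
  refine mk_mask (α := GolayPt × GolayPt × Finset GolayPt) octF octT 759 rfl rfl rfl
    (fun k => Bool.and (Nat.testBit (ent octT k) 23) (Nat.testBit (ent octT k) 0)) (bp 23, bp 0, O0)
    ?_ gs_pqo rt_pqo ?_ 2
    (fun a => sg a.2.2) (fun g _ a => sg_smul g a.2.2) [0x82402f] (by decide +kernel) (by decide +kernel)
    (sg_mset _) [64, 4, 16] ?_ (fun b h => h.1) ?_ tab_pqo [1, 16, 60] (by decide +kernel)
    (by decide +kernel) (by decide +kernel)
  · rintro ⟨p, q, o⟩ ⟨ho, hp, hq, hne⟩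
    obtain ⟨r, hr⟩ := exists_not_mem_octad ho
    obtain ⟨g, hg, h1, h2, _, h3⟩ := flag3 O0_mem ho bp23_O0 bp0_O0 (by decide) bp4_O0 hp hq hne hr
    exact ⟨g, hg, Prod.ext h1 (Prod.ext h2 h3)⟩
  · intro P hP
    obtain ⟨g, hg, hA, h1, h2, _⟩ := gsAll_sound (gs := gs_pqo) (pts := [23, 0]) (ms := [0x82402f])
      (rs := []) (by decide +kernel) P hP
    exact ⟨g, hg, hA, Prod.ext (h1 23 (by simp) (by decide)) (Prod.ext (h1 0 (by simp) (by decide))
      (h2 _ (by simp)))⟩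
  · intro g hg a b hb
    exact ⟨(smul_octad hg).2 hb.1, (Finset.smul_mem_smul_finset_iff g).2 hb.2.1,
      (Finset.smul_mem_smul_finset_iff g).2 hb.2.2⟩
  · intro k hk
    rw [Bool.and_eq_true, ← mem_mset_idx (by decide : 23 < 24), ← mem_mset_idx (by decide : 0 < 24)]
    exact ⟨fun h => ⟨oct_mem_mset k hk, h.1, h.2⟩, fun h => h.2⟩

/-- `(p, q, o)` with `p ∈ o`, `q ∉ o` -/
theorem orbs_pQo : Orbs M24 {a : GolayPt × GolayPt × Finset GolayPt | a.2.2 ∈ octads ∧ a.1 ∈ a.2.2 ∧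
      a.2.1 ∉ a.2.2}
    (fun a => {b | b ∈ octads ∧ a.1 ∈ b ∧ a.2.1 ∉ b})
    (fun a b => find [64, 4, 16] (jsum 2 (sg a.2.2) (sg b))) 3 (szf [1, 70, 105]) := by
  refine mk_mask (α := GolayPt × GolayPt × Finset GolayPt) octF octT 759 rfl rfl rfl
    (fun k => Bool.and (Nat.testBit (ent octT k) 23) (Bool.not (Nat.testBit (ent octT k) 4)))
    (bp 23, bp 4, O0)
    ?_ gs_pQo rt_pQo ?_ 2
    (fun a => sg a.2.2) (fun g _ a => sg_smul g a.2.2) [0x82402f] (by decide +kernel) (by decide +kernel)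
    (sg_mset _) [64, 4, 16] ?_ (fun b h => h.1) ?_ tab_pQo [1, 70, 105] (by decide +kernel)
    (by decide +kernel) (by decide +kernel)
  · rintro ⟨p, q, o⟩ ⟨ho, hp, hq⟩
    obtain ⟨r, hr, hne⟩ := exists_other_in ho p
    obtain ⟨g, hg, h1, _, h2, h3⟩ := flag3 O0_mem ho bp23_O0 bp0_O0 (by decide) bp4_O0 hp hr hne hq
    exact ⟨g, hg, Prod.ext h1 (Prod.ext h2 h3)⟩
  · intro P hP
    obtain ⟨g, hg, hA, h1, h2, _⟩ := gsAll_sound (gs := gs_pQo) (pts := [23, 4]) (ms := [0x82402f])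
      (rs := []) (by decide +kernel) P hP
    exact ⟨g, hg, hA, Prod.ext (h1 23 (by simp) (by decide)) (Prod.ext (h1 4 (by simp) (by decide))
      (h2 _ (by simp)))⟩
  · intro g hg a b hb
    exact ⟨(smul_octad hg).2 hb.1, (Finset.smul_mem_smul_finset_iff g).2 hb.2.1,
      fun h => hb.2.2 ((Finset.smul_mem_smul_finset_iff g).1 h)⟩
  · intro k hk
    rw [Bool.and_eq_true, Bool.not_eq_true', ← Bool.not_eq_true (Nat.testBit (ent octT k) 4),
      ← mem_mset_idx (by decide : 23 < 24), ← mem_mset_idx (by decide : 4 < 24)]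
    exact ⟨fun h => ⟨oct_mem_mset k hk, h.1, h.2⟩, fun h => h.2⟩

/-- `(p, q)` with `p ≠ q`: octads through `p` not `q` -/
theorem orbs_pQ : Orbs M24 {a : GolayPt × GolayPt | a.1 ≠ a.2}
    (fun a => {b | b ∈ octads ∧ a.1 ∈ b ∧ a.2 ∉ b})
    (fun _ b => find [0] (jsum 2 ∅ (sg b))) 1 (szf [176]) := by
  refine mk_mask (α := GolayPt × GolayPt) octF octT 759 rfl rfl rfl
    (fun k => Bool.and (Nat.testBit (ent octT k) 23) (Bool.not (Nat.testBit (ent octT k) 4)))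
    (bp 23, bp 4)
    ?_ gs_pQ rt_pQ ?_ 2
    (fun _ => ∅) (fun g _ a => rfl) [] (by decide +kernel) (by decide +kernel)
    rfl [0] ?_ (fun b h => h.1) ?_ tab_pQ [176] (by decide +kernel)
    (by decide +kernel) (by decide +kernel)
  · rintro ⟨p, q⟩ hne
    obtain ⟨o, ho, h1, h2⟩ := exists_octad {p} {q} (by simpa using hne) (by simp)
    obtain ⟨r, hr, hne⟩ := exists_other_in ho p
    obtain ⟨g, hg, h1, _, h2, h3⟩ := flag3 O0_mem ho bp23_O0 bp0_O0 (by decide) bp4_O0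
      (h1 (by simp)) hr hne (fun h => Finset.disjoint_left.1 h2 (Finset.mem_singleton_self q) h)
    exact ⟨g, hg, Prod.ext h1 h2⟩
  · intro P hP
    obtain ⟨g, hg, hA, h1, _⟩ := gsAll_sound (gs := gs_pQ) (pts := [23, 4]) (ms := [])
      (rs := []) (by decide +kernel) P hP
    exact ⟨g, hg, hA, Prod.ext (h1 23 (by simp) (by decide)) (h1 4 (by simp) (by decide))⟩
  · intro g hg a b hb
    exact ⟨(smul_octad hg).2 hb.1, (Finset.smul_mem_smul_finset_iff g).2 hb.2.1,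
      fun h => hb.2.2 ((Finset.smul_mem_smul_finset_iff g).1 h)⟩
  · intro k hk
    rw [Bool.and_eq_true, Bool.not_eq_true', ← Bool.not_eq_true (Nat.testBit (ent octT k) 4),
      ← mem_mset_idx (by decide : 23 < 24), ← mem_mset_idx (by decide : 4 < 24)]
    exact ⟨fun h => ⟨oct_mem_mset k hk, h.1, h.2⟩, fun h => h.2⟩

/-- `(x, d)` with `x ∈ d`, `d` a dodecad -/
theorem orbs_xd : Orbs M24 {a : GolayPt × Finset GolayPt | a.2 ∈ dodecads ∧ a.1 ∈ a.2}
    (fun a => {b | b ∈ dodecads ∧ a.1 ∈ b})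
    (fun a b => find [144, 16, 64, 36] (jsum 2 (sg a.2) (sg b))) 4 (szf [1, 165, 330, 792]) := by
  refine mk_mask (α := GolayPt × Finset GolayPt) dodF dodT 2576 rfl rfl rfl
    (fun k => Nat.testBit (ent dodT k) 0) (bp 0, D0) ?_ gs_xd rt_xd ?_ 2
    (fun a => sg a.2) (fun g _ a => sg_smul g a.2) [0x5335f] (by decide +kernel) (by decide +kernel)
    (sg_mset _) [144, 16, 64, 36] ?_ (fun b h => h.1) ?_ tab_xd [1, 165, 330, 792] (by decide +kernel)
    (by decide +kernel) (by decide +kernel)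
  · rintro ⟨x, d⟩ ⟨hd, hx⟩
    obtain ⟨g, hg, h1, h2⟩ := flag_trans D0_mem hd (D0_five (bp 0) (by simp)) hx
    exact ⟨g, hg, Prod.ext h2 h1⟩
  · intro P hP
    obtain ⟨g, hg, hA, h1, h2, _⟩ := gsAll_sound (gs := gs_xd) (pts := [0]) (ms := [0x5335f])
      (rs := []) (by decide +kernel) P hP
    exact ⟨g, hg, hA, Prod.ext (h1 0 (by simp) (by decide)) (h2 _ (by simp))⟩
  · intro g hg a b hb
    exact ⟨(smul_dodecad hg).2 hb.1, (Finset.smul_mem_smul_finset_iff g).2 hb.2⟩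
  · intro k hk
    rw [← mem_mset_idx (by decide : 0 < 24)]
    exact ⟨fun h => ⟨dod_mem_mset k hk, h⟩, fun h => h.2⟩

end CfsgL.Orb
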