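import Cfsg.Agent.L.Orb.O2
/-!
Pairs disjoint from two points, triples.
-/
set_option autoImplicit false
namespace CfsgL.Orb
open Cfsg CfsgL.Comp CfsgL.Golay
open scoped Pointwise

/-- octads of the table satisfying `f` all lie in the list `l` -/
def octIn (f : ℕ → Bool) (l : List ℕ) : Bool :=
  allD (fun k => Bool.or (Nat.ble 759 k) (force (ent octT k) (fun m =>
    Bool.or (Bool.not (f m)) (l.any (fun x => Nat.beq x m))))) 10 0

theorem octIn_sound {f : ℕ → Bool} {l : List ℕ} (h : octIn f l = true) {o : Finset GolayPt}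
    (ho : o ∈ octads) : ∃ m, o = mset m ∧ (f m = true → m ∈ l) := by
  obtain ⟨k, hk, rfl⟩ := octF.surj o ho
  refine ⟨ent octT k, rfl, fun hf => ?_⟩
  have hk' : k < 759 := hk
  have := allD_lt h (x := k) (by omega)
  rw [Bool.or_eq_true, natBle_iff, force_eq, Bool.or_eq_true, hf, List.any_eq_true] at this
  rcases this with h1 | h1 | ⟨x, hx, h1⟩
  · omega
  · exact absurd h1 (by decide)
  · rw [natBeq_iff] at h1; rwa [← h1]

/-- submask test -/
def subm (x y : ℕ) : Bool := Nat.beq (Nat.land x y) x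

theorem subm_iff {x y : ℕ} (hx : x < 2 ^ 24) : subm x y = true ↔ mset x ⊆ mset y := by
  unfold subm
  rw [natBeq_iff]
  change x &&& y = x ↔ _
  rw [← Finset.inter_eq_left, ← mset_and, mset_inj (lt_of_le_of_lt Nat.and_le_left hx) hx]

/-- an octad of the list containing the mask -/
def anyOct (l : List ℕ) (m : ℕ) : Bool := l.any (fun o => subm m o)

theorem anyOct_iff {l : List ℕ} {a : ℕ} (ha : a < 2 ^ 24) (h : octIn (subm a) l = true)
    (hl : l.all (fun o => Bool.and (isWt 8 o) (subm a o)) = true) {m : ℕ} (hm : m < 2 ^ 24) :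
    anyOct l m = true ↔ ∃ o ∈ octads, mset a ⊆ o ∧ mset m ⊆ o := by
  unfold anyOct
  rw [List.any_eq_true]
  constructor
  · rintro ⟨x, hx, h1⟩
    rw [List.all_eq_true] at hl
    have h2 := hl x hx
    unfold isWt at h2
    rw [Bool.and_eq_true, Bool.and_eq_true, natBeq_iff] at h2
    exact ⟨mset x, mem_octads_mset h2.1.1 h2.1.2, (subm_iff ha).1 h2.2, (subm_iff hm).1 h1⟩
  · rintro ⟨o, ho, h1, h2⟩
    obtain ⟨x, rfl, hx⟩ := octIn_sound h ho
    exact ⟨x, hx ((subm_iff ha).2 h1), (subm_iff hm).2 h2⟩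

open Classical in
/-- indicator of being contained in an octad -/
noncomputable def ind (A : Finset GolayPt) : ℕ := if ∃ o ∈ octads, A ⊆ o then 1 else 0

theorem ind_pos {A : Finset GolayPt} (h : ∃ o ∈ octads, A ⊆ o) : ind A = 1 := by
  unfold ind; rw [if_pos h]

theorem ind_neg {A : Finset GolayPt} (h : ¬ ∃ o ∈ octads, A ⊆ o) : ind A = 0 := by
  unfold ind; rw [if_neg h]

/-- class function for triples -/
noncomputable def cT (T U : Finset GolayPt) : ℕ :=
  find [7, 5, 1, 3, 0] (2 * (T ∩ U).card + ind (T ∪ U))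

theorem ex_octad_smul {g : Equiv.Perm GolayPt} (hg : g ∈ M24) {T : Finset GolayPt} :
    (∃ o ∈ octads, g • T ⊆ o) ↔ ∃ o ∈ octads, T ⊆ o := by
  constructor
  · rintro ⟨o, ho, h⟩
    refine ⟨g⁻¹ • o, (smul_octad (M24.inv_mem hg)).2 ho, ?_⟩
    rw [← Finset.smul_finset_subset_smul_finset_iff (a := g), smul_inv_smul]
    exact h
  · rintro ⟨o, ho, h⟩
    exact ⟨g • o, (smul_octad hg).2 ho, Finset.smul_finset_subset_smul_finset_iff.2 h⟩

theorem ind_smul {g : Equiv.Perm GolayPt} (hg : g ∈ M24) (T : Finset GolayPt) :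
    ind (g • T) = ind T := by
  by_cases h : ∃ o ∈ octads, T ⊆ o
  · rw [ind_pos h, ind_pos ((ex_octad_smul hg).2 h)]
  · rw [ind_neg h, ind_neg (fun h' => h ((ex_octad_smul hg).1 h'))]

theorem cT_smul {g : Equiv.Perm GolayPt} (hg : g ∈ M24) (T U : Finset GolayPt) :
    cT (g • T) (g • U) = cT T U := by
  unfold cT
  rw [← Finset.smul_finset_inter, card_smul_finset', ← Finset.smul_finset_union, ind_smul hg]

theorem mset_or' (a b : ℕ) : mset a ∪ mset b = mset (a ||| b) := (mset_or a b).symm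

theorem orbs_T : Orbs M24 {s : Finset GolayPt | s.card = 3} (fun _ => {s : Finset GolayPt | s.card = 3})
    cT 5 (szf [1, 63, 210, 630, 1120]) := by
  have hoc : ∀ m < 2 ^ 24, (anyOct oc_T m = true ↔ ∃ o ∈ octads, mset 0x800003 ∪ mset m ⊆ o) := by
    intro m hm
    rw [anyOct_iff (a := 0x800003) (by decide) (by decide +kernel) (by decide +kernel) hm]
    simp only [Finset.union_subset_iff]
  refine Orbs.of_table triadF (fun _ => true) M24 (mset 0x800003) base_triad gs_T rt_T ?_ cT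
    (fun g hg a b => cT_smul hg a b) ?_ (fun b hb => hb)
    (fun k hk => ⟨fun _ => triadF.mem k hk, fun _ => rfl⟩)
    (fun k => find [7, 5, 1, 3, 0] (2 * pop24 (Nat.land 0x800003 (ent triadT k)) +
      cond (anyOct oc_T (ent triadT k)) 1 0)) ?_ tab_T 5 _ ?_ ?_ ?_
  · intro P hP
    obtain ⟨g, hg, hA, _, h2, _⟩ := gsAll_sound (gs := gs_T) (pts := []) (ms := [0x800003])
      (rs := []) (by decide +kernel) P hP
    exact ⟨g, hg, hA, h2 _ (by simp)⟩
  · intro g hg _ b hb
    change (g • b).card = 3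
    rw [card_smul_finset']; exact hb
  · intro k hk _
    unfold cT
    have e : triadF.obj k = mset (ent triadT k) := rfl
    rw [e, ← mset_and, card_mset]
    congr 2
    by_cases h : anyOct oc_T (ent triadT k) = true
    · rw [h, cond_true, ind_pos ((hoc _ (ent_lt _ _)).1 h)]
    · rw [ind_neg (fun h' => h ((hoc _ (ent_lt _ _)).2 h'))]
      rw [Bool.not_eq_true] at h
      rw [h, cond_false]
  · decide +kernel
  · decide +kernel
  · exact cntOK_iff (sizes := [1, 63, 210, 630, 1120]) (by decide +kernel)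

/-- class function for pairs avoiding two points -/
noncomputable def cP (a : GolayPt × GolayPt × Finset GolayPt) (t : Finset GolayPt) : ℕ :=
  find [5, 1, 3, 0] (2 * (a.2.2 ∩ t).card + ind (({a.1, a.2.1} ∪ a.2.2) ∪ t))

theorem smul_two (g : Equiv.Perm GolayPt) (p q : GolayPt) :
    g • ({p, q} : Finset GolayPt) = {g • p, g • q} := by
  rw [Finset.smul_finset_insert, Finset.smul_finset_singleton]

theorem cP_smul {g : Equiv.Perm GolayPt} (hg : g ∈ M24) (a : GolayPt × GolayPt × Finset GolayPt)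
    (t : Finset GolayPt) : cP (g • a) (g • t) = cP a t := by
  obtain ⟨p, q, s⟩ := a
  unfold cP
  change find [5, 1, 3, 0] (2 * ((g • s) ∩ (g • t)).card + ind (({g • p, g • q} ∪ g • s) ∪ g • t)) = _
  rw [← Finset.smul_finset_inter, card_smul_finset', ← smul_two, ← Finset.smul_finset_union,
    ← Finset.smul_finset_union, ind_smul hg]

theorem orbs_pqs : Orbs M24 {a : GolayPt × GolayPt × Finset GolayPt | a.1 ≠ a.2.1 ∧ a.2.2.card = 2 ∧
      a.1 ∉ a.2.2 ∧ a.2.1 ∉ a.2.2}
    (fun a => {t | t.card = 2 ∧ a.1 ∉ t ∧ a.2.1 ∉ t}) cP 4 (szf [1, 30, 40, 160]) := by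
  have hset : ({bp 23, bp 0} ∪ mset 6 : Finset GolayPt) = mset 0x800007 := by
    ext p
    simp only [Finset.mem_union, Finset.mem_insert, Finset.mem_singleton, mem_mset]
    revert p; decide +kernel
  have hoc : ∀ m < 2 ^ 24, (anyOct oc_pqs m = true ↔ ∃ o ∈ octads, ({bp 23, bp 0} ∪ mset 6) ∪ mset m ⊆ o) := by
    intro m hm
    rw [anyOct_iff (a := 0x800007) (by decide) (by decide +kernel) (by decide +kernel) hm, hset]
    simp only [Finset.union_subset_iff]
  refine Orbs.of_table duadF (fun k => Bool.and (Bool.not (Nat.testBit (ent duadT k) 23))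
      (Bool.not (Nat.testBit (ent duadT k) 0))) M24 (bp 23, bp 0, mset 6) ?_ gs_pqs rt_pqs ?_ cP
    (fun g hg a b => cP_smul hg a b) ?_ (fun b hb => hb.1) ?_
    (fun k => find [5, 1, 3, 0] (2 * pop24 (Nat.land 6 (ent duadT k)) +
      cond (anyOct oc_pqs (ent duadT k)) 1 0)) ?_ tab_pqs 4 _ ?_ ?_ ?_
  · rintro ⟨p, q, s⟩ ⟨hpq, hs, hp, hq⟩
    obtain ⟨a, b, hab, rfl⟩ := Finset.card_eq_two.1 hs
    simp only [Finset.mem_insert, Finset.mem_singleton, not_or] at hp hq
    obtain ⟨e, he⟩ := exists_other [p, q, a, b] (by simp)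
    simp only [List.mem_cons, List.not_mem_nil, or_false, not_or] at he
    obtain ⟨g, hg, h1, h2, h3, h4, _⟩ := base_to p q a b e hpq hp.1 hp.2 (Ne.symm he.1) hq.1 hq.2
      (Ne.symm he.2.1) hab (Ne.symm he.2.2.1) (Ne.symm he.2.2.2)
    refine ⟨g, hg, Prod.ext h1 (Prod.ext h2 ?_)⟩
    have : mset 6 = {bp 1, bp 2} := by
      ext p
      simp only [Finset.mem_insert, Finset.mem_singleton, mem_mset]
      revert p; decide +kernel
    change g • mset 6 = {a, b}
    rw [this, smul_two]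
    change {g (bp 1), g (bp 2)} = _
    rw [h3, h4]
  · intro P hP
    obtain ⟨g, hg, hA, h1, h2, _⟩ := gsAll_sound (gs := gs_pqs) (pts := [23, 0]) (ms := [6])
      (rs := []) (by decide +kernel) P hP
    exact ⟨g, hg, hA, Prod.ext (h1 23 (by simp) (by decide)) (Prod.ext (h1 0 (by simp) (by decide))
      (h2 _ (by simp)))⟩
  · intro g hg a b hb
    exact ⟨by rw [card_smul_finset']; exact hb.1,
      fun h => hb.2.1 ((Finset.smul_mem_smul_finset_iff g).1 h),
      fun h => hb.2.2 ((Finset.smul_mem_smul_finset_iff g).1 h)⟩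
  · intro k hk
    rw [Bool.and_eq_true, Bool.not_eq_true', Bool.not_eq_true', ← Bool.not_eq_true,
      ← Bool.not_eq_true, ← mem_mset_idx (by decide : 23 < 24), ← mem_mset_idx (by decide : 0 < 24)]
    exact ⟨fun h => ⟨duadF.mem k hk, h.1, h.2⟩, fun h => h.2⟩
  · intro k hk _
    unfold cP
    change _ = find [5, 1, 3, 0] (2 * (mset 6 ∩ mset (ent duadT k)).card +
      ind (({bp 23, bp 0} ∪ mset 6) ∪ mset (ent duadT k)))
    rw [← mset_and, card_mset]
    congr 2
    by_cases h : anyOct oc_pqs (ent duadT k) = true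
    · rw [h, cond_true, ind_pos ((hoc _ (ent_lt _ _)).1 h)]
    · rw [ind_neg (fun h' => h ((hoc _ (ent_lt _ _)).2 h'))]
      rw [Bool.not_eq_true] at h
      rw [h, cond_false]
  · decide +kernel
  · decide +kernel
  · exact cntOK_iff (sizes := [1, 30, 40, 160]) (by decide +kernel)

end CfsgL.Orb
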