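import Cfsg.Agent.L.Orb.Base
/-!
Transitivity of `M24` on the standard families.
-/
set_option autoImplicit false
namespace CfsgL.Orb
open Cfsg CfsgL.Comp CfsgL.Golay
open scoped Pointwise

theorem base_oct : ∀ a ∈ octads, ∃ h ∈ M24, h • mset 0x82402f = a :=
  fun _ ha => octad_trans O0_mem ha

theorem base_dod : ∀ a ∈ dodecads, ∃ h ∈ M24, h • mset 0x5335f = a :=
  fun _ ha => dodecad_trans D0_mem ha

theorem smul_insert' (g : Equiv.Perm GolayPt) (a : GolayPt) (s : Finset GolayPt) :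
    g • insert a s = insert (g a) (g • s) := by
  rw [Finset.smul_finset_insert]; rfl

theorem two_trans_set {s t : Finset GolayPt} (hs : s.card = 2) (ht : t.card = 2) :
    ∃ g ∈ M24, g • s = t := by
  obtain ⟨a, b, hab, rfl⟩ := Finset.card_eq_two.1 hs
  obtain ⟨a', b', hab', rfl⟩ := Finset.card_eq_two.1 ht
  obtain ⟨c, hc⟩ := exists_other [a, b] (by simp)
  obtain ⟨d, hd⟩ := exists_other [a, b, c] (by simp)
  obtain ⟨e, he⟩ := exists_other [a, b, c, d] (by simp)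
  obtain ⟨c', hc'⟩ := exists_other [a', b'] (by simp)
  obtain ⟨d', hd'⟩ := exists_other [a', b', c'] (by simp)
  obtain ⟨e', he'⟩ := exists_other [a', b', c', d'] (by simp)
  simp only [List.mem_cons, List.not_mem_nil, or_false, not_or] at hc hd he hc' hd' he'
  obtain ⟨g, hg, h1, h2, _⟩ := five_trans hab (Ne.symm hc.1) (Ne.symm hd.1) (Ne.symm he.1)
    (Ne.symm hc.2) (Ne.symm hd.2.1) (Ne.symm he.2.1) (Ne.symm hd.2.2) (Ne.symm he.2.2.1)
    (Ne.symm he.2.2.2) hab' (Ne.symm hc'.1) (Ne.symm hd'.1) (Ne.symm he'.1)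
    (Ne.symm hc'.2) (Ne.symm hd'.2.1) (Ne.symm he'.2.1) (Ne.symm hd'.2.2) (Ne.symm he'.2.2.1)
    (Ne.symm he'.2.2.2)
  refine ⟨g, hg, ?_⟩
  rw [smul_insert', Finset.smul_finset_singleton, h1]
  change {a', g b} = _
  rw [h2]

theorem three_trans_set {s t : Finset GolayPt} (hs : s.card = 3) (ht : t.card = 3) :
    ∃ g ∈ M24, g • s = t := by
  obtain ⟨a, b, c, hab, hac, hbc, rfl⟩ := Finset.card_eq_three.1 hs
  obtain ⟨a', b', c', hab', hac', hbc', rfl⟩ := Finset.card_eq_three.1 ht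
  obtain ⟨d, hd⟩ := exists_other [a, b, c] (by simp)
  obtain ⟨e, he⟩ := exists_other [a, b, c, d] (by simp)
  obtain ⟨d', hd'⟩ := exists_other [a', b', c'] (by simp)
  obtain ⟨e', he'⟩ := exists_other [a', b', c', d'] (by simp)
  simp only [List.mem_cons, List.not_mem_nil, or_false, not_or] at hd he hd' he'
  obtain ⟨g, hg, h1, h2, h3, _⟩ := five_trans hab hac (Ne.symm hd.1) (Ne.symm he.1)
    hbc (Ne.symm hd.2.1) (Ne.symm he.2.1) (Ne.symm hd.2.2) (Ne.symm he.2.2.1)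
    (Ne.symm he.2.2.2) hab' hac' (Ne.symm hd'.1) (Ne.symm he'.1)
    hbc' (Ne.symm hd'.2.1) (Ne.symm he'.2.1) (Ne.symm hd'.2.2) (Ne.symm he'.2.2.1)
    (Ne.symm he'.2.2.2)
  refine ⟨g, hg, ?_⟩
  rw [smul_insert', smul_insert', Finset.smul_finset_singleton, h1, h2]
  change {a', b', g c} = _
  rw [h3]

theorem four_trans_set {s t : Finset GolayPt} (hs : s.card = 4) (ht : t.card = 4) :
    ∃ g ∈ M24, g • s = t := by
  obtain ⟨d, s', hds, rfl, hs'⟩ := Finset.card_eq_succ.1 hs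
  obtain ⟨d', t', hdt, rfl, ht'⟩ := Finset.card_eq_succ.1 ht
  obtain ⟨a, b, c, hab, hac, hbc, rfl⟩ := Finset.card_eq_three.1 hs'
  obtain ⟨a', b', c', hab', hac', hbc', rfl⟩ := Finset.card_eq_three.1 ht'
  simp only [Finset.mem_insert, Finset.mem_singleton, not_or] at hds hdt
  obtain ⟨e, he⟩ := exists_other [a, b, c, d] (by simp)
  obtain ⟨e', he'⟩ := exists_other [a', b', c', d'] (by simp)
  simp only [List.mem_cons, List.not_mem_nil, or_false, not_or] at he he'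
  obtain ⟨g, hg, h1, h2, h3, h4, _⟩ := five_trans hab hac (Ne.symm hds.1) (Ne.symm he.1)
    hbc (Ne.symm hds.2.1) (Ne.symm he.2.1) (Ne.symm hds.2.2) (Ne.symm he.2.2.1)
    (Ne.symm he.2.2.2) hab' hac' (Ne.symm hdt.1) (Ne.symm he'.1)
    hbc' (Ne.symm hdt.2.1) (Ne.symm he'.2.1) (Ne.symm hdt.2.2) (Ne.symm he'.2.2.1)
    (Ne.symm he'.2.2.2)
  refine ⟨g, hg, ?_⟩
  rw [smul_insert', smul_insert', smul_insert', Finset.smul_finset_singleton, h1, h2, h4]
  change {d', a', b', g c} = _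
  rw [h3]

theorem smul_cls {g : Equiv.Perm GolayPt} (hg : g ∈ M24) {t : Finset GolayPt} (ht : t.card = 4) :
    g • cls t = cls (g • t) :=
  sextet_eq (smul_sextet hg (cls_mem ht)) (Finset.smul_mem_smul_finset (self_mem_cls ht))

theorem base_sext : ∀ a ∈ sextets, ∃ h ∈ M24, h • objL L_sext = a := by
  intro a ha
  have h0 : objL L_sext ∈ sextets := sextRow_sound (by decide) (by decide +kernel)
  have hm : mset 0x800007 ∈ objL L_sext := mem_objL.2 ⟨0x800007, by decide +kernel, rfl⟩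
  have hne : a.Nonempty := by rw [← Finset.card_pos, ha.1]; omega
  obtain ⟨t, ht⟩ := hne
  obtain ⟨g, hg, h⟩ := four_trans_set (h0.2.1 _ hm) (ha.2.1 t ht)
  refine ⟨g, hg, ?_⟩
  rw [sextet_eq h0 hm, smul_cls hg (h0.2.1 _ hm), h, ← sextet_eq ha ht]

theorem base_dpair : ∀ a ∈ dpairs, ∃ h ∈ M24, h • objL L_dpair = a := by
  rintro a ⟨d, hd, rfl⟩
  obtain ⟨g, hg, h⟩ := dodecad_trans D0_mem hd
  refine ⟨g, hg, ?_⟩
  have h0 : objL L_dpair ∈ dpairs := dpairRow_sound (by decide +kernel)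
  have hm : D0 ∈ objL L_dpair := mem_objL.2 ⟨0x5335f, by decide +kernel, rfl⟩
  obtain ⟨e, he, he'⟩ := h0
  rw [he'] at hm ⊢
  simp only [Finset.mem_insert, Finset.mem_singleton] at hm
  rcases hm with hm | hm
  · rw [← hm, smul_pair, smul_compl', h]
  · rw [smul_pair, smul_compl']
    have : g • e = dᶜ := by rw [← h, hm, smul_compl', compl_compl]
    rw [this, compl_compl, Finset.pair_comm]

theorem base_duad : ∀ a ∈ {s : Finset GolayPt | s.card = 2}, ∃ h ∈ M24, h • mset 0x800001 = a :=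
  fun _ ha => two_trans_set (by rw [card_mset]; decide +kernel) ha

theorem base_triad : ∀ a ∈ {s : Finset GolayPt | s.card = 3}, ∃ h ∈ M24, h • mset 0x800003 = a :=
  fun _ ha => three_trans_set (by rw [card_mset]; decide +kernel) ha

end CfsgL.Orb
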