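import Cfsg.Agent.L.Orb.O_oct_oct
/-!
Transitivity of `M24` on pairs of octads with given intersection and on trios.
-/
set_option autoImplicit false
namespace CfsgL.Orb
open Cfsg CfsgL.Comp CfsgL.Golay
open scoped Pointwise

theorem isum_sg (a b : Finset GolayPt) : isum (sg a) (sg b) = (a ∩ b).card ^ 2 := by
  unfold isum sg; simp

theorem oct_pair_trans {o o' o'' : Finset GolayPt} (ho : o ∈ octads) (ho' : o' ∈ octads)
    (ho'' : o'' ∈ octads) (h : (o ∩ o').card = (o ∩ o'').card) :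
    ∃ g ∈ M24, g • o = o ∧ g • o' = o'' :=
  orbs_oct_oct.trans o ho o' ho' o'' ho'' (by beta_reduce; rw [isum_sg, isum_sg, h])

theorem mset_O0 : O0 = mset 0x82402f := rfl

theorem base_trio : ∀ a ∈ trios, ∃ h ∈ M24, h • objL L_trio = a := by
  intro a ha
  have h0 : objL L_trio ∈ trios := trioRow_sound (by decide) (by decide +kernel)
  have htwo : ∀ T ∈ trios, ∃ o ∈ T, ∃ o' ∈ T, o ≠ o' := by
    intro T hT
    have : 1 < T.card := by rw [hT.1]; omega
    obtain ⟨o, ho, o', ho', h⟩ := Finset.one_lt_card.1 this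
    exact ⟨o, ho, o', ho', h⟩
  obtain ⟨o, ho, o', ho', hne⟩ := htwo a ha
  obtain ⟨p, hp, p', hp', hne'⟩ := htwo _ h0
  obtain ⟨g, hg, h1⟩ := octad_trans (h0.2.1 p hp) (ha.2.1 o ho)
  have hd1 : (o ∩ (g • p')).card = 0 := by
    rw [← h1, ← Finset.smul_finset_inter, card_smul_finset', Finset.card_eq_zero,
      ← Finset.disjoint_iff_inter_eq_empty]
    exact h0.2.2 p hp p' hp' hne'
  have hd2 : (o ∩ o').card = 0 := by
    rw [Finset.card_eq_zero, ← Finset.disjoint_iff_inter_eq_empty]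
    exact ha.2.2 o ho o' ho' hne
  obtain ⟨g', hg', h2, h3⟩ := oct_pair_trans (ha.2.1 o ho) ((smul_octad hg).2 (h0.2.1 p' hp'))
    (ha.2.1 o' ho') (hd1.trans hd2.symm)
  refine ⟨g' * g, M24.mul_mem hg' hg, ?_⟩
  have h4 := smul_trio (M24.mul_mem hg' hg) h0
  have h5 : o ∈ (g' * g) • objL L_trio := by
    rw [← h2, ← h1, ← mul_smul]
    exact Finset.smul_mem_smul_finset hp
  have h6 : o' ∈ (g' * g) • objL L_trio := by
    rw [← h3, ← mul_smul]
    exact Finset.smul_mem_smul_finset hp'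
  rw [trio_eq h4 h5 h6 hne, ← trio_eq ha ho ho' hne]

end CfsgL.Orb
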