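import Cfsg.Agent.L.Orb.TrioTrans
import Cfsg.Agent.L.Orb.O_sext_sext
import Cfsg.Agent.L.Orb.O_trio_trio
/-!
Consequences of the orbit tables.
-/
set_option autoImplicit false
namespace CfsgL.Orb
open Cfsg CfsgL.Comp CfsgL.Golay
open scoped Pointwise

variable {α β : Type} [MulAction (Equiv.Perm GolayPt) α] [MulAction (Equiv.Perm GolayPt) β]

theorem find_cons (v : ℕ) (l : List ℕ) (x : ℕ) : find (v :: l) x = if v = x then 0 else find l x + 1 := by
  change cond (Nat.beq v x) 0 (Nat.succ (find l x)) = _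
  by_cases h : v = x
  · rw [if_pos h, natBeq_iff.2 h, cond_true]
  · rw [if_neg h]
    have : Nat.beq v x = false := by rw [← Bool.not_eq_true, natBeq_iff]; exact h
    rw [this, cond_false]

theorem find_spec (l : List ℕ) (x : ℕ) (h : find l x < l.length) : l.getD (find l x) 0 = x := by
  induction l with
  | nil => simp at h
  | cons v l ih =>
    rw [find_cons] at h ⊢
    by_cases h1 : v = x
    · rw [if_pos h1]; simpa using h1
    · rw [if_neg h1] at h ⊢
      rw [List.getD_cons_succ]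
      exact ih (by simpa using h)

theorem isum_self {a : Finset (Finset GolayPt)} {k : ℕ} (h : ∀ s ∈ a, ∀ t ∈ a, s ≠ t → Disjoint s t)
    (hk : ∀ s ∈ a, s.card = k) : isum a a = a.card * k ^ 2 := by
  unfold isum
  rw [Finset.sum_congr rfl (fun s hs => ?_), Finset.sum_const, smul_eq_mul]
  rw [Finset.sum_eq_single s]
  · rw [Finset.inter_self, hk s hs]
  · intro t ht hne
    rw [Finset.disjoint_iff_inter_eq_empty.1 (h s hs t ht hne.symm)]
    rfl
  · intro h'; exact absurd hs h'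

theorem sext_disj {S : Finset (Finset GolayPt)} (hS : S ∈ sextets) :
    ∀ s ∈ S, ∀ t ∈ S, s ≠ t → Disjoint s t := fun s hs t ht hne =>
  (Cs_of_pair (hS.2.1 s hs) (hS.2.1 t ht) (hS.2.2 s hs t ht hne)).1

theorem isum_sext {S : Finset (Finset GolayPt)} (hS : S ∈ sextets) : isum S S = 96 := by
  rw [isum_self (sext_disj hS) hS.2.1, hS.1]; norm_num

theorem isum_trio {S : Finset (Finset GolayPt)} (hS : S ∈ trios) : isum S S = 192 := by
  rw [isum_self hS.2.2 (fun o ho => (mem_octads'.1 (hS.2.1 o ho)).2), hS.1]; norm_num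

theorem isum_dpair {S : Finset (Finset GolayPt)} (hS : S ∈ dpairs) : isum S S = 288 := by
  have h2 := dpairs_card hS
  obtain ⟨d, hd, rfl⟩ := hS
  rw [isum_self (k := 12) ?_ ?_, h2]
  · norm_num
  · intro s hs t ht hne
    simp only [Finset.mem_insert, Finset.mem_singleton] at hs ht
    rcases hs with rfl | rfl <;> rcases ht with rfl | rfl
    · exact absurd rfl hne
    · exact disjoint_compl_right
    · exact disjoint_compl_left
    · exact absurd rfl hne
  · intro s hs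
    simp only [Finset.mem_insert, Finset.mem_singleton] at hs
    rcases hs with rfl | rfl
    · exact (mem_dodecads'.1 hd).2
    · exact (mem_dodecads'.1 (compl_dodecad hd)).2

theorem Orbs.self_class {F : Set α} {c : α → α → ℕ} {r : ℕ} {size : ℕ → ℕ}
    (h : Orbs M24 F (fun _ => F) c r size) (hr : 0 < r) (h0 : ∀ a ∈ F, c a a = 0) (hs0 : size 0 = 1)
    {a b : α} (ha : a ∈ F) (hb : b ∈ F) (hc : c a b = 0) : b = a := by
  have h1 := h.count a ha 0 hr
  rw [hs0, Set.ncard_eq_one] at h1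
  obtain ⟨x, hx⟩ := h1
  have h2 : b ∈ ({x} : Set α) := by rw [← hx]; exact ⟨hb, hc⟩
  have h3 : a ∈ ({x} : Set α) := by rw [← hx]; exact ⟨ha, h0 a ha⟩
  rw [Set.mem_singleton_iff] at h2 h3
  rw [h2, h3]

theorem Orbs.orbit_self {F : Set α} {c : α → α → ℕ} {r : ℕ} {size : ℕ → ℕ}
    (h : Orbs M24 F (fun _ => F) c r size) (hr : 0 < r) (h0 : ∀ a ∈ F, c a a = 0) (hs0 : size 0 = 1)
    {a b : α} (ha : a ∈ F) (hb : b ∈ F) (hc : c a b = 0) :
    MulAction.orbit ↥(MulAction.stabilizer M24 a) b = {a} := by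
  rw [h.self_class hr h0 hs0 ha hb hc]
  ext x
  rw [Set.mem_singleton_iff]
  constructor
  · rintro ⟨g, rfl⟩; exact g.2
  · rintro rfl; exact MulAction.mem_orbit_self _

theorem Orbs.four_self {F : Set α} {c : α → α → ℕ} {size : ℕ → ℕ}
    (h : Orbs M24 F (fun _ => F) c 4 size) (h0 : ∀ a ∈ F, c a a = 0) (hs0 : size 0 = 1)
    (hs : ∀ i < 4, 0 < size i) {a : α} (ha : a ∈ F) :
    ∃ X₁ ∈ F, ∃ X₂ ∈ F, ∃ X₃ ∈ F,
      (MulAction.orbit ↥(MulAction.stabilizer M24 a) X₁).ncard = size 1 ∧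
      (MulAction.orbit ↥(MulAction.stabilizer M24 a) X₂).ncard = size 2 ∧
      (MulAction.orbit ↥(MulAction.stabilizer M24 a) X₃).ncard = size 3 ∧
      F = {a} ∪ MulAction.orbit ↥(MulAction.stabilizer M24 a) X₁ ∪
        MulAction.orbit ↥(MulAction.stabilizer M24 a) X₂ ∪
        MulAction.orbit ↥(MulAction.stabilizer M24 a) X₃ := by
  obtain ⟨X1, h1, X2, h2, X3, h3, X4, h4, c1, s1, s2, s3, s4, e⟩ := h.four ha hs
  rw [h.orbit_self (by omega) h0 hs0 ha h1 c1] at e
  exact ⟨X2, h2, X3, h3, X4, h4, s2, s3, s4, e⟩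

theorem Orbs.five_self {F : Set α} {c : α → α → ℕ} {size : ℕ → ℕ}
    (h : Orbs M24 F (fun _ => F) c 5 size) (h0 : ∀ a ∈ F, c a a = 0) (hs0 : size 0 = 1)
    (hs : ∀ i < 5, 0 < size i) {a : α} (ha : a ∈ F) :
    ∃ X₁ ∈ F, ∃ X₂ ∈ F, ∃ X₃ ∈ F, ∃ X₄ ∈ F,
      (MulAction.orbit ↥(MulAction.stabilizer M24 a) X₁).ncard = size 1 ∧
      (MulAction.orbit ↥(MulAction.stabilizer M24 a) X₂).ncard = size 2 ∧
      (MulAction.orbit ↥(MulAction.stabilizer M24 a) X₃).ncard = size 3 ∧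
      (MulAction.orbit ↥(MulAction.stabilizer M24 a) X₄).ncard = size 4 ∧
      F = {a} ∪ MulAction.orbit ↥(MulAction.stabilizer M24 a) X₁ ∪
        MulAction.orbit ↥(MulAction.stabilizer M24 a) X₂ ∪
        MulAction.orbit ↥(MulAction.stabilizer M24 a) X₃ ∪
        MulAction.orbit ↥(MulAction.stabilizer M24 a) X₄ := by
  obtain ⟨X1, h1, X2, h2, X3, h3, X4, h4, X5, h5, c1, s1, s2, s3, s4, s5, e⟩ := h.five ha hs
  rw [h.orbit_self (by omega) h0 hs0 ha h1 c1] at e
  exact ⟨X2, h2, X3, h3, X4, h4, X5, h5, s2, s3, s4, s5, e⟩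

theorem trans_of_base {F : Set α} {A0 : α} (h : ∀ a ∈ F, ∃ g ∈ M24, g • A0 = a) :
    ∀ a ∈ F, ∀ b ∈ F, ∃ g ∈ M24, g • a = b := by
  intro a ha b hb
  obtain ⟨g, hg, e⟩ := h a ha
  obtain ⟨g', hg', e'⟩ := h b hb
  exact ⟨g' * g⁻¹, M24.mul_mem hg' (M24.inv_mem hg), by rw [mul_smul, ← e, inv_smul_smul, e']⟩

/-- order of a stabiliser -/
theorem card_stab {F : Set α} {A0 : α} (h : ∀ a ∈ F, ∃ g ∈ M24, g • A0 = a)
    (hF : ∀ g ∈ M24, ∀ a ∈ F, g • a ∈ F) {a : α} (ha : a ∈ F) :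
    Nat.card (MulAction.stabilizer M24 a) * F.ncard = 244823040 := by
  have h1 : MulAction.orbit M24 a = F := by
    ext b
    constructor
    · rintro ⟨g, rfl⟩
      exact hF _ g.2 a ha
    · intro hb
      obtain ⟨g, hg, e⟩ := trans_of_base h a ha b hb
      exact ⟨⟨g, hg⟩, e⟩
  have h2 := Subgroup.card_mul_index (MulAction.stabilizer M24 a)
  rw [MulAction.index_stabilizer, h1, card_M24] at h2
  exact h2

/-- order of a joint stabiliser -/
theorem Orbs.card_joint {FA : Set α} {FB : Set β} {c : α → β → ℕ} {r : ℕ} {size : ℕ → ℕ}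
    (h : Orbs M24 FA (fun _ => FB) c r size) {a : α} (ha : a ∈ FA) {b : β} (hb : b ∈ FB) :
    Nat.card ↥(MulAction.stabilizer M24 a ⊓ MulAction.stabilizer M24 b) * size (c a b) =
      Nat.card (MulAction.stabilizer M24 a) := by
  have h2 := Subgroup.card_mul_index (MulAction.stabilizer ↥(MulAction.stabilizer M24 a) b)
  rw [MulAction.index_stabilizer, h.ncard_orbit ha hb] at h2
  rw [← h2]
  congr 1
  have e : MulAction.stabilizer ↥(MulAction.stabilizer M24 a) b =
      (MulAction.stabilizer M24 b).subgroupOf (MulAction.stabilizer M24 a) := by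
    ext k
    rw [Subgroup.mem_subgroupOf, MulAction.mem_stabilizer_iff, MulAction.mem_stabilizer_iff]
    rfl
  rw [e]
  have e2 : (MulAction.stabilizer M24 b).subgroupOf (MulAction.stabilizer M24 a) =
      (MulAction.stabilizer M24 a ⊓ MulAction.stabilizer M24 b).subgroupOf (MulAction.stabilizer M24 a) := by
    rw [Subgroup.inf_subgroupOf_left]
  rw [e2]
  exact (Nat.card_congr (Subgroup.subgroupOfEquivOfLe inf_le_left).toEquiv).symm

end CfsgL.Orb
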